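import Cfsg.Agent.H864.RC.Def3
import Cfsg.Agent.H179.RC.BoxB
import Cfsg.Agent.H499.RC.ZU

/-!
# S3510, triality type iii, members of order `p`: the end by the M-rule (helper421)

`dead_of_sub` : `X` perfect, `X / Z(X)` simple classical, `φ : X →* E Q` injective, the image is the derived group
of the centraliser in `E Q` of a member `g i` of odd order: contradiction.
-/

set_option autoImplicit false
open Cfsg

namespace Cfsg.Agent.H421.RC

open Module QuadraticMap MulAction
open Cfsg.Agent.LieClassical.OrthCore Cfsg.Agent.LieClassical.OrthTrans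
open Cfsg.Agent.LieClassical.OrthSimple Cfsg.Agent.ClassicalGeometry.OrthSemi
open Cfsg.Agent.ClassicalGeometry.OrthAut1 Cfsg.Agent.H106.RC Cfsg.Agent.H93.RC Cfsg.Agent.H566.RC
open Cfsg.Agent.LieClassical.QuadForms Cfsg.Agent.ClassicalGeometry.TrialityOct
open Cfsg.Agent.ClassicalGeometry.Triality Cfsg.Agent.ClassicalGeometry.TrialitySpaces
open Cfsg.Agent.H198.TriBase Cfsg.Agent.H198.TriAut Cfsg.Agent.H206.Balance Cfsg.Agent.H198.TriDia
open Cfsg.Agent.H198.TwComp Cfsg.Agent.H198 Cfsg.Agent.H864.RC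
open scoped commutatorElement

variable {F : Type} [Field F]

/-- the centre of `E Q` consists of elements of order at most two -/
theorem center_sq {V : Type} [AddCommGroup V] [Module F V] {Q : QuadraticForm F V} (hG : Good Q) {t : ↥(E Q)}
    (ht : t ∈ Subgroup.center ↥(E Q)) : ∃ a : F, a * a = 1 ∧ ∀ v, (t : V ≃ₗ[F] V) v = a • v := by
  obtain ⟨a, ha, hav⟩ := H179.RC.center_scal hG ht
  refine ⟨a, ?_, hav⟩
  obtain ⟨x, y, hxy⟩ := hG.exists_hyp
  have h1 : Q ((t : V ≃ₗ[F] V) (x + y)) = Q (x + y) := E_le_O t.2 _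
  rw [hav, QuadraticMap.map_smul, smul_eq_mul] at h1
  have h2 : Q (x + y) = 1 := by
    rw [Q_add, hxy.left, hxy.right, hxy.pair]
    ring
  rw [h2, mul_one] at h1
  exact h1

section env
variable {G Ω ι : Type} [Group G] [MulAction G Ω] {N : Subgroup G} {hG : Good (plusForm 4 F)}
  {κ : P8 F →* G} {s : F ≃+* F} {x₁ : G} {x : ι → G} {r : ι → ℕ} {g : ι → (V8 F ≃ₗ[F] V8 F)}

/-- **The end by the M-rule.** -/
theorem dead_of_sub [Finite F] [Finite G] [Finite ι] [Nonempty Ω] (h : T3 hG N κ s Ω x₁ x r g)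
    (hIH : IH (Nat.card N)) (hN : NoN Ω N) {X : Type} [Group X] [Finite X] (hperf : commutator X = ⊤)
    (h1 : IsSimpleGroup (X ⧸ Subgroup.center X)) (h2 : ¬ IsMulCommutative (X ⧸ Subgroup.center X))
    (h3 : Cl (X ⧸ Subgroup.center X)) (h4 : ¬ Exc (X ⧸ Subgroup.center X))
    (φ : X →* ↥(E (plusForm 4 F))) (hφ : Function.Injective φ) (i : ι) (hodd : r i ≠ 2)
    (hcomm : ∀ t, (φ t : V8 F ≃ₗ[F] V8 F) * g i = g i * φ t)
    (hder : ∀ a b : ↥(E (plusForm 4 F)), (a : V8 F ≃ₗ[F] V8 F) * g i = g i * a →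
      (b : V8 F ≃ₗ[F] V8 F) * g i = g i * b → ⁅a, b⁆ ∈ φ.range)
    (hone : ∃ Y : V8 F →ₗ[F] V8 F, Y ≠ 0 ∧ (∀ v, Y (Y v) = 0) ∧
      ∀ t : F, ∃ m, ∀ v, (φ m : V8 F ≃ₗ[F] V8 F) v = v + t • Y v)
    (h3e : ∃ m : X, m ^ 3 = 1 ∧ m ≠ 1) : False := by
  classical
  have hrep := h.rp.rep
  set ρ := up κ with hρ
  set f : X →* G := ρ.comp φ with hf
  have hfa : ∀ t, f t = ρ (φ t) := fun t => rfl
  set c₀ : ↥(E (plusForm 4 F)) := ⟨g i, (h.mem i).1⟩ with hc₀
  have hxi : x i = ρ c₀ := h.x_eq i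
  have hmemN : ∀ t, ρ t ∈ N := fun t => by rw [← hrep.range]; exact ⟨t, rfl⟩
  have hcz : ∀ {t : ↥(E (plusForm 4 F))}, ρ t = 1 → t ∈ Subgroup.center ↥(E (plusForm 4 F)) := by
    intro t ht
    rw [← hrep.ker]
    exact ht
  -- centralising modulo the centre
  have hlift : ∀ a : ↥(E (plusForm 4 F)), ρ a * x i = x i * ρ a → a * c₀ = c₀ * a := by
    intro a ha
    have h5 : ρ (a * c₀ * a⁻¹ * c₀⁻¹) = 1 := by
      rw [map_mul, map_mul, map_mul, map_inv, map_inv, ← hxi, ha]
      group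
    have h6 := hcz h5
    set z := a * c₀ * a⁻¹ * c₀⁻¹ with hz
    have hz2 : z * z = 1 := by
      obtain ⟨b, hb, hbv⟩ := center_sq hG h6
      apply Subtype.ext
      apply LinearEquiv.ext
      intro v
      show (z : V8 F ≃ₗ[F] V8 F) ((z : V8 F ≃ₗ[F] V8 F) v) = v
      rw [hbv, hbv, smul_smul, hb, one_smul]
    have hzc : a * c₀ * a⁻¹ = z * c₀ := by rw [hz]; group
    have hc0r : c₀ ^ r i = 1 := Subtype.ext (by rw [Subgroup.coe_pow]; exact h.pow i)
    have h7 : (z * c₀) ^ r i = 1 := by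
      rw [← hzc, conj_pow, hc0r, mul_one, mul_inv_cancel]
    have h8 : z ^ r i = 1 := by
      have h9 : Commute z c₀ := (Subgroup.mem_center_iff.1 h6 c₀).symm
      rw [h9.mul_pow, hc0r, mul_one] at h7
      exact h7
    have hodd' : Odd (r i) := (h.prime i).odd_of_ne_two hodd
    have hz1 : z = 1 := by
      obtain ⟨k, hk⟩ := hodd'
      rw [hk, pow_succ, pow_mul, pow_two, hz2, one_pow, one_mul] at h8
      exact h8
    rw [hz1, one_mul] at hzc
    exact mul_inv_eq_iff_eq_mul.1 hzc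
  -- the image of `f`
  set C : Subgroup G := N ⊓ Subgroup.centralizer ({x i} : Set G) with hC
  have hmemC : ∀ y, y ∈ C ↔ y ∈ N ∧ y * x i = x i * y := by
    intro y
    rw [hC, Subgroup.mem_inf, Subgroup.mem_centralizer_singleton_iff]
  have hrC : f.range ≤ C := by
    rintro _ ⟨t, rfl⟩
    rw [hmemC]
    refine ⟨hmemN _, ?_⟩
    rw [hfa, hxi, ← map_mul, ← map_mul]
    congr 1
    exact Subtype.ext (hcomm t)
  have hfperf : ⁅f.range, f.range⁆ = f.range := by
    have h5 := Subgroup.map_commutator (⊤ : Subgroup X) ⊤ f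
    rw [← commutator_def, hperf, ← MonoidHom.range_eq_map] at h5
    exact h5.symm
  have hrange : f.range = ⁅C, C⁆ := by
    apply le_antisymm
    · rw [← hfperf]
      exact Subgroup.commutator_mono hrC hrC
    · rw [Subgroup.commutator_le]
      intro u hu v hv
      rw [hmemC] at hu hv
      obtain ⟨a, rfl⟩ : ∃ a, ρ a = u := by
        have := hu.1
        rw [← hrep.range] at this
        exact this
      obtain ⟨b, rfl⟩ : ∃ b, ρ b = v := by
        have := hv.1
        rw [← hrep.range] at this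
        exact this
      obtain ⟨t, ht⟩ := hder a b (congrArg Subtype.val (hlift a hu.2)) (congrArg Subtype.val (hlift b hv.2))
      exact ⟨t, by rw [hfa, ht, map_commutatorElement]⟩
  -- normalised by the elements commuting with `x i`
  have hnorm : ∀ y : G, y * x i = x i * y → ∀ t, ∃ t', y * f t * y⁻¹ = f t' := by
    intro y hy t
    have hn := h.env.norm
    have h5 : ∀ m ∈ C, y * m * y⁻¹ ∈ C := by
      intro m hm
      rw [hmemC] at hm ⊢
      refine ⟨hn.conj_mem m hm.1 y, ?_⟩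
      have h6 : y⁻¹ * x i = x i * y⁻¹ := by
        rw [inv_mul_eq_iff_eq_mul, ← mul_assoc, hy, mul_assoc, mul_inv_cancel, mul_one]
      rw [mul_assoc, h6, mul_assoc, ← mul_assoc m, hm.2, ← mul_assoc, ← mul_assoc, ← mul_assoc, hy, mul_assoc (x i) y m]
    have h6 : C.map (MulAut.conj y).toMonoidHom ≤ C := by
      rintro _ ⟨m, hm, rfl⟩
      exact h5 m hm
    have h7 : f t ∈ ⁅C, C⁆ := by rw [← hrange]; exact ⟨t, rfl⟩
    have h8 : y * f t * y⁻¹ ∈ (⁅C, C⁆ : Subgroup G).map (MulAut.conj y).toMonoidHom := ⟨f t, h7, rfl⟩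
    rw [Subgroup.map_commutator] at h8
    have h9 := Subgroup.commutator_mono h6 h6 h8
    rw [← hrange] at h9
    obtain ⟨t', ht'⟩ := h9
    exact ⟨t', ht'.symm⟩
  have hne : f.range ≠ N := by
    intro h5
    have h6 : x i ∈ Subgroup.centralizer (N : Set G) := by
      rw [Subgroup.mem_centralizer_iff]
      intro n hn
      have h7 : n ∈ f.range := by rw [h5]; exact hn
      exact ((hmemC n).1 (hrC h7)).2
    rw [h.env.cent] at h6
    exact h.x_ne i (Subgroup.mem_bot.1 h6)
  have hrN : f.range ≤ N := by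
    rintro _ ⟨t, rfl⟩
    exact hmemN _
  have hker : ∀ t, f t = 1 → t ∈ Subgroup.center X := by
    intro t ht
    have h5 := hcz (t := φ t) ht
    rw [Subgroup.mem_center_iff]
    intro u
    apply hφ
    rw [map_mul, map_mul]
    exact Subgroup.mem_center_iff.1 h5 _
  -- `x₁` does not centralise the image
  have hx1 : ¬ ∀ t, x₁ * f t = f t * x₁ := by
    intro hall
    obtain ⟨Y, hY0, hYY, hY⟩ := hone
    have hsq : ∀ m : X, ((φ m : V8 F ≃ₗ[F] V8 F) * φ m ∈ AutD (fG s)) ∧
        ((2 : F) = 0 → (φ m : V8 F ≃ₗ[F] V8 F) ∈ AutD (fG s)) := by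
      intro m
      obtain ⟨c', hc', hc'D⟩ := h.mem_of_comm (φ m) (hall m)
      have h5 : (φ m)⁻¹ * c' ∈ Subgroup.center ↥(E (plusForm 4 F)) := QuotientGroup.eq.1 hc'.symm
      obtain ⟨b, hb, hbv⟩ := center_sq hG h5
      have h6 : ∀ v, (c' : V8 F ≃ₗ[F] V8 F) v = b • (φ m : V8 F ≃ₗ[F] V8 F) v := by
        intro v
        have h7 := hbv v
        have h8 : (φ m : V8 F ≃ₗ[F] V8 F) ((((φ m)⁻¹ * c' : ↥(E (plusForm 4 F))) : V8 F ≃ₗ[F] V8 F) v) =
            (c' : V8 F ≃ₗ[F] V8 F) v := by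
          have : (φ m) * ((φ m)⁻¹ * c') = c' := by group
          exact congrArg (fun w : ↥(E (plusForm 4 F)) => (w : V8 F ≃ₗ[F] V8 F) v) this
        rw [h7, map_smul] at h8
        exact h8.symm
      constructor
      · have h7 : (φ m : V8 F ≃ₗ[F] V8 F) * φ m = (c' : V8 F ≃ₗ[F] V8 F) * c' := by
          apply LinearEquiv.ext
          intro v
          show (φ m : V8 F ≃ₗ[F] V8 F) ((φ m : V8 F ≃ₗ[F] V8 F) v) = (c' : V8 F ≃ₗ[F] V8 F) ((c' : V8 F ≃ₗ[F] V8 F) v)
          rw [h6, h6, map_smul, smul_smul, hb, one_smul]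
        rw [h7]
        exact (AutD (fG s)).mul_mem hc'D hc'D
      · intro h20
        have hb1 : b = 1 := by
          have h8 : (b - 1) * (b - 1) = 0 := by linear_combination hb + (1 - b) * h20
          rcases mul_eq_zero.1 h8 with h9 | h9 <;> exact sub_eq_zero.1 h9
        have h7 : (φ m : V8 F ≃ₗ[F] V8 F) = c' := by
          apply LinearEquiv.ext
          intro v
          rw [h6, hb1, one_smul]
        rw [h7]
        exact hc'D
    -- the one-parameter group
    have hpar : ∀ t : F, ∃ c ∈ AutD (fG s), ∀ v, c v = v + t • Y v := by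
      intro t
      by_cases h20 : (2 : F) = 0
      · obtain ⟨m, hm⟩ := hY t
        exact ⟨_, (hsq m).2 h20, hm⟩
      · obtain ⟨m, hm⟩ := hY (t / 2)
        refine ⟨_, (hsq m).1, fun v => ?_⟩
        show (φ m : V8 F ≃ₗ[F] V8 F) ((φ m : V8 F ≃ₗ[F] V8 F) v) = _
        have : NeZero (2 : F) := ⟨h20⟩
        rw [hm, hm, map_add, map_smul, hYY, smul_zero, add_zero, add_assoc, ← add_smul, add_halves]
    choose c hcD hcv using hpar
    exact hY0 (H499.RC.ZU1 h.cube h.ne Y c hcD hcv)
  -- the family with `x₁`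
  let xx : Option ι → G := fun o => o.elim x₁ x
  let rr : Option ι → ℕ := fun o => o.elim 3 r
  have hPF : PF xx rr := by
    refine ⟨?_, ?_, ?_, ?_, ?_⟩
    · rintro (_ | j)
      · exact Nat.prime_three
      · exact h.prime j
    · rintro (_ | j) (_ | k) hjk
      · rfl
      · exact absurd hjk.symm (h.three k)
      · exact absurd hjk (h.three j)
      · exact congrArg some (h.inj hjk)
    · rintro (_ | j)
      · exact h.x1_cube
      · exact h.x_pow j
    · rintro (_ | j)
      · intro h5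
        apply hx1
        intro t
        have h6 : x₁ = 1 := h5
        rw [h6, one_mul, mul_one]
      · exact h.x_ne j
    · rintro (_ | j) (_ | k)
      · rfl
      · exact h.x1_comm k
      · exact (h.x1_comm j).symm
      · exact h.x_comm j k
  have hcov : Cov Ω xx := by
    intro ω
    rcases h.cov ω with h5 | ⟨j, hj⟩
    · exact ⟨none, h5⟩
    · exact ⟨some j, hj⟩
  have hnn : ∀ (o : Option ι) t, ∃ t', xx o * f t * (xx o)⁻¹ = f t' := by
    rintro (_ | j) t
    · exact hnorm x₁ (h.x1_comm i) t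
    · exact hnorm (x j) (h.x_comm j i) t
  have hm := H179.RC.mrule_hom hIH (MulEquiv.refl N) f hrN hne hker hperf h1 h2 h3 h4 hPF hcov hnn
  -- the new cover
  obtain ⟨m, hm3, hm1⟩ := h3e
  let J := {j : ι // ∀ t, x j * f t = f t * x j}
  have : Finite J := Subtype.finite
  let yy : Option J → G := fun o => o.elim (f m) fun j => x j.1
  let tt : Option J → ℕ := fun o => o.elim 3 fun j => r j.1
  refine hN (Option J) yy tt ?_ ?_ ?_
  · refine ⟨?_, ?_, ?_, ?_, ?_⟩
    · rintro (_ | j)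
      · exact Nat.prime_three
      · exact h.prime j.1
    · rintro (_ | j) (_ | k) hjk
      · rfl
      · exact absurd hjk.symm (h.three k.1)
      · exact absurd hjk (h.three j.1)
      · exact congrArg some (Subtype.ext (h.inj hjk))
    · rintro (_ | j)
      · show f m ^ 3 = 1
        rw [← map_pow, hm3, map_one]
      · exact h.x_pow j.1
    · rintro (_ | j)
      · intro h5
        have h6 : ρ (φ m) = 1 := h5
        obtain ⟨b, hb, hbv⟩ := center_sq hG (hcz h6)
        apply hm1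
        apply hφ
        rw [map_one]
        have h7 : φ m * φ m = 1 := by
          apply Subtype.ext
          apply LinearEquiv.ext
          intro v
          show (φ m : V8 F ≃ₗ[F] V8 F) ((φ m : V8 F ≃ₗ[F] V8 F) v) = v
          rw [hbv, hbv, smul_smul, hb, one_smul]
        have h8 : φ m ^ 3 = 1 := by rw [← map_pow, hm3, map_one]
        rw [pow_succ, pow_two, h7, one_mul] at h8
        exact h8
      · exact h.x_ne j.1
    · rintro (_ | j) (_ | k)
      · rfl
      · exact (k.2 m).symm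
      · exact j.2 m
      · exact h.x_comm j.1 k.1
  · intro ω
    rcases hm ω with h5 | ⟨o, ho, ho'⟩
    · exact ⟨none, h5 m⟩
    · rcases o with _ | j
      · exact (hx1 ho).elim
      · exact ⟨some ⟨j, ho⟩, ho'⟩
  · rintro (_ | j)
    · exact hmemN _
    · exact h.x_mem j.1

end env

end Cfsg.Agent.H421.RC
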